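import Cfsg.Prelude.Def_FusionSystem
import Mathlib.GroupTheory.Sylow

/-! Automorphisms of a model fixing the Sylow subgroup pointwise. -/

set_option autoImplicit false
set_option linter.style.haveILetI false

namespace CfsgLib.FusionBasics

open Cfsg

variable {G : Type*} [Group G] [Finite G] {p : ℕ} [Fact p.Prime]

open scoped IsMulCommutative in
/-- An automorphism that fixes a Sylow subgroup pointwise is conjugation by a central element of it,
when the centralizer of `O_p` is contained in `O_p`. -/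
theorem exists_conj_of_fixes_sylow (T : Sylow p G)
    (hC : Subgroup.centralizer ((pCore p G : Subgroup G) : Set G) ≤ pCore p G)
    (ψ : G ≃* G) (hψ : ∀ x ∈ (T : Subgroup G), ψ x = x) :
    ∃ z ∈ (T : Subgroup G), (∀ x ∈ (T : Subgroup G), z * x = x * z) ∧
      ∀ g : G, ψ g = z * g * z⁻¹ := by
  set Q := pCore p G
  haveI : Q.Normal := Subgroup.sSup_normal _ fun N hN => hN.1
  have hQp : IsPGroup p Q := Sylow.sSup_of_normal _ (fun N hN => hN.2) fun N hN => hN.1
  have hQT : Q ≤ (T : Subgroup G) := hQp.le_sylow_of_normal T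
  set Z := Q ⊓ Subgroup.centralizer (Q : Set G) with hZ
  haveI : IsMulCommutative Z := ⟨⟨fun a b => Subtype.ext (b.2.2 a a.2.1)⟩⟩
  have hd : ∀ g : G, ψ g * g⁻¹ ∈ Z := by
    intro g
    have h1 : ψ g * g⁻¹ ∈ Subgroup.centralizer (Q : Set G) := fun x hx => by
      have hx' : g⁻¹ * x * g⁻¹⁻¹ ∈ Q := Subgroup.Normal.conj_mem ‹Q.Normal› x hx g⁻¹
      have h := hψ _ (hQT hx')
      simp only [map_mul, map_inv, inv_inv, hψ x (hQT hx)] at h
      calc x * (ψ g * g⁻¹) = ψ g * ((ψ g)⁻¹ * x * ψ g) * g⁻¹ := by group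
        _ = ψ g * (g⁻¹ * x * g⁻¹⁻¹) * g⁻¹ := by rw [h, inv_inv]
        _ = ψ g * g⁻¹ * x := by group
    exact ⟨hC h1, h1⟩
  have hZn : ∀ g : G, ∀ z ∈ Z, g * z * g⁻¹ ∈ Z := fun g z hz =>
    ⟨Subgroup.Normal.conj_mem ‹Q.Normal› z hz.1 g, by
      intro x hx
      have h := hz.2 _ (Subgroup.Normal.conj_mem ‹Q.Normal› x hx g⁻¹)
      calc x * (g * z * g⁻¹) = g * ((g⁻¹ * x * g⁻¹⁻¹) * z) * g⁻¹ := by group
        _ = g * (z * (g⁻¹ * x * g⁻¹⁻¹)) * g⁻¹ := by rw [h]
        _ = g * z * g⁻¹ * x := by group⟩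
  let d : G → Z := fun g => ⟨ψ g * g⁻¹, hd g⟩
  let c : G → Z →* Z := fun g =>
    { toFun := fun z => ⟨g * z * g⁻¹, hZn g z z.2⟩
      map_one' := Subtype.ext (by simp)
      map_mul' := fun a b => Subtype.ext (by simp [mul_assoc]) }
  have hmul : ∀ g h, d (g * h) = d g * c g (d h) := fun g h => Subtype.ext (by
    show ψ (g * h) * (g * h)⁻¹ = ψ g * g⁻¹ * (g * (ψ h * h⁻¹) * g⁻¹)
    rw [map_mul]
    group)
  let dq : G ⧸ (T : Subgroup G) → Z := fun q => Quotient.liftOn' q d fun a b hab => by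
    rw [QuotientGroup.leftRel_apply] at hab
    refine Subtype.ext ?_
    show ψ a * a⁻¹ = ψ b * b⁻¹
    have h := hψ _ hab
    rw [map_mul, map_inv] at h
    calc ψ a * a⁻¹ = ψ a * (a⁻¹ * b) * b⁻¹ := by group
      _ = ψ a * ((ψ a)⁻¹ * ψ b) * b⁻¹ := by rw [h]
      _ = ψ b * b⁻¹ := by group
  haveI : Fintype (G ⧸ (T : Subgroup G)) := Fintype.ofFinite _
  set n := Fintype.card (G ⧸ (T : Subgroup G)) with hn
  set D : Z := ∏ q, dq q with hDdef
  have hD : ∀ g, D = d g ^ n * c g D := by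
    intro g
    calc D = ∏ q, dq (g • q) := by
          rw [hDdef]
          exact (Fintype.prod_equiv (MulAction.toPerm g) _ _ fun q => rfl).symm
      _ = ∏ q, d g * c g (dq q) := Finset.prod_congr rfl fun q _ => by
          obtain ⟨x, rfl⟩ := QuotientGroup.mk_surjective q
          exact hmul g x
      _ = _ := by rw [Finset.prod_mul_distrib, Finset.prod_const, Finset.card_univ, map_prod]
  have hnd : ¬ p ∣ n := by
    rw [hn, ← Nat.card_eq_fintype_card, ← Subgroup.index_eq_card]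
    exact T.not_dvd_index
  have hZp : IsPGroup p Z := hQp.to_le inf_le_left
  obtain ⟨w, hw⟩ := (hZp.powEquiv' hnd).surjective D
  replace hw : w ^ n = D := hw
  have hkey : ∀ g, d g = w * (c g w)⁻¹ := by
    intro g
    refine (hZp.powEquiv' hnd).injective ?_
    show d g ^ n = (w * (c g w)⁻¹) ^ n
    rw [mul_pow, inv_pow, ← map_pow, hw, eq_mul_inv_iff_mul_eq]
    exact (hD g).symm
  have hmain : ∀ g, ψ g = w * g * (w : G)⁻¹ := by
    intro g
    have h : ψ g * g⁻¹ = (w : G) * (g * w * g⁻¹)⁻¹ := congrArg Subtype.val (hkey g)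
    calc ψ g = ψ g * g⁻¹ * g := by group
      _ = (w : G) * (g * w * g⁻¹)⁻¹ * g := by rw [h]
      _ = _ := by group
  exact ⟨w, hQT w.2.1, fun x hx => mul_inv_eq_iff_eq_mul.mp ((hmain x).symm.trans (hψ x hx)), hmain⟩

end CfsgLib.FusionBasics
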